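import Cfsg.Agent.H11.L34.TorAlg
import Cfsg.Agent.H436.L34.Frame
import Cfsg.Agent.H413.L16.Br

/-!
# S5917, type (D): the toral kill in the Lie algebra of `E₈` (helper11)

* `toral_frame` : `φ` additive and equivariant on the hermitian matrices with commuting values: all generalised
  eigenspaces (nonzero eigenvalue) of `ad` of `φ 1` have dimension divisible by three (in a frame `z`);
* `z_zero` : if moreover `φ 1 = k + t`, `[k, t] = 0`, `ad k` nilpotent, `ad t` scalar on three blocks of dimension 64 and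
  zero on a complement, the scalars of sum zero, then `t = 0`.
-/

set_option autoImplicit false
set_option maxRecDepth 100000

namespace Cfsg.Agent.H11.L34

open Matrix Module Module.End Cfsg Cfsg.Lie Cfsg.Lie.ChevalleyDatum Cfsg.Agent.H691.L34
open Cfsg.Agent.H939.L64
open Cfsg.Agent.H413.L16 (jac ad_inj)
open Cfsg.Agent.H436.L34 (aK_em_up up_br aK_mul')

/-- the action as a linear map -/
noncomputable def aL (g : ↥(chevE8.group KK)) : LK →ₗ[KK] LK :=
  Matrix.mulVecLin (((g : GL chevE8.Idx KK) : Matrix chevE8.Idx chevE8.Idx KK))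

theorem aL_apply (g : ↥(chevE8.group KK)) (v : LK) : aL g v = aK g v := rfl

theorem aK_brK (g : ↥(chevE8.group KK)) (v w : LK) : aK g (brK v w) = brK (aK g v) (aK g w) :=
  Cfsg.Agent.H971.RV.rho_br (by simp) g v w

theorem aK_one' (v : LK) : aK 1 v = v := by
  unfold aK
  rw [Subgroup.coe_one, Units.val_one, Matrix.one_mulVec]

theorem up_zero' : up 0 = 0 := by
  funext i
  exact map_zero _

theorem up_add' (v w : L2) : up (v + w) = up v + up w := by
  funext i
  exact map_add _ _ _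

/-- `ad` -/
noncomputable abbrev adE (v : LK) : Module.End KK LK := brL v

theorem adE_add (u v : LK) : adE (u + v) = adE u + adE v := map_add brL u v

theorem comm_of {u v : LK} (h : brK u v = 0) : Commute (adE u) (adE v) := by
  apply LinearMap.ext
  intro x
  show brK u (brK v x) = brK v (brK u x)
  rw [jac, h]
  have : brK (0 : LK) x = 0 := by
    have := LinearMap.congr_fun (map_zero brL) x
    exact this
  rw [this, zero_add]

variable {F : Type} [Field F] [Fintype F]

theorem toral_frame (hF : Fintype.card F = 4) (z : ↥(chevE8.group KK)) (f : G3 F →* E2) {s : Bool} {φ : M3 F → L2}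
    (hadd : ∀ X Y, HF X → HF Y → φ (X + Y) = φ X + φ Y)
    (heq : ∀ g X, HF X → a2 (f g) (φ X) = φ (hact (tw s g) X))
    (hab : ∀ X Y, HF X → HF Y → br2 (φ X) (φ Y) = 0) {c : KK} (hc : c ≠ 0) :
    3 ∣ finrank KK ((adE (aK z⁻¹ (up (φ 1)))).maxGenEigenspace c) := by
  have hz : ∀ g : G3 F, ∀ v, aK (z⁻¹ * em (f g) * z) (aK z⁻¹ v) = aK z⁻¹ (aK (em (f g)) v) := by
    intro g v
    rw [← aK_mul', ← aK_mul', mul_assoc, mul_inv_cancel, mul_one]
  have k2 : (2 : KK) = 0 := by
    have := CharP.cast_eq_zero KK 2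
    exact_mod_cast this
  have hgr : ∀ g h : G3 F, z⁻¹ * em (f (g * h)) * z = z⁻¹ * em (f g) * z * (z⁻¹ * em (f h) * z) := by
    intro g h
    have h1 : em (f (g * h)) = em (f g) * em (f h) := by rw [map_mul, map_mul]
    rw [h1]
    generalize em (f g) = a
    generalize em (f h) = b
    group
  refine toral_kill (L := LK) hF k2 (by rw [finrank_LK]; omega) (fun g => aL (z⁻¹ * em (f g) * z)) ?_ ?_ s
    (fun X => adE (aK z⁻¹ (up (φ X)))) ?_ ?_ ?_ hc
  · apply LinearMap.ext
    intro v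
    show aK (z⁻¹ * em (f 1) * z) v = v
    rw [map_one, map_one, mul_one, inv_mul_cancel, aK_one']
  · intro g h
    apply LinearMap.ext
    intro v
    show aK (z⁻¹ * em (f (g * h)) * z) v = aK (z⁻¹ * em (f g) * z) (aK (z⁻¹ * em (f h) * z) v)
    rw [← aK_mul', hgr]
  · intro X Y hX hY
    have h1 : aK z⁻¹ (up (φ X) + up (φ Y)) = aK z⁻¹ (up (φ X)) + aK z⁻¹ (up (φ Y)) := map_add (aL z⁻¹) _ _
    rw [hadd X Y hX hY, up_add', h1, adE_add]
  · intro X Y hX hY
    apply comm_of
    rw [← aK_brK, ← up_br, hab X Y hX hY, up_zero']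
    exact map_zero (aL z⁻¹)
  · intro g X hX
    apply LinearMap.ext
    intro v
    show aK (z⁻¹ * em (f g) * z) (brK (aK z⁻¹ (up (φ X))) v) =
      brK (aK z⁻¹ (up (φ (hact (tw s g) X)))) (aK (z⁻¹ * em (f g) * z) v)
    rw [aK_brK, hz, aK_em_up, heq g X hX]

/-- **the nilpotency of `φ 1`** -/
theorem z_zero (hF : Fintype.card F = 4) (z : ↥(chevE8.group KK)) (f : G3 F →* E2) {s : Bool} {φ : M3 F → L2}
    (hadd : ∀ X Y, HF X → HF Y → φ (X + Y) = φ X + φ Y)
    (heq : ∀ g X, HF X → a2 (f g) (φ X) = φ (hact (tw s g) X))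
    (hab : ∀ X Y, HF X → HF Y → br2 (φ X) (φ Y) = 0) {k t : LK} (h : aK z⁻¹ (up (φ 1)) = k + t)
    (hkt : brK k t = 0) (hk : IsNilpotent (adE k)) {W0 W1 W2 M : Submodule KK LK} {c0 c1 c2 : KK}
    (hB : Blk (adE t) W0 W1 W2 M c0 c1 c2) (hs : c0 + c1 + c2 = 0) : t = 0 := by
  have k2 : (2 : KK) = 0 := by
    have := CharP.cast_eq_zero KK 2
    exact_mod_cast this
  have h1 : adE t = 0 := by
    refine hB.eq_zero k2 hs fun c hc => ?_
    have h2 := toral_frame hF z f hadd heq hab hc
    rw [h, adE_add, maxGen_add (comm_of hkt) hk] at h2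
    exact h2
  apply ad_inj
  intro v
  exact LinearMap.congr_fun h1 v

end Cfsg.Agent.H11.L34
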